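import Cfsg.Agent.Lib.HermCount.Field

/-!
# Counting unitary elements of an algebra with a semilinear involution

`E` is an algebra over the field `K` with `q ^ 2` elements with a semilinear anti-involution `σ`,
and `ρ : E → R` a surjective ring homomorphism with nil kernel, compatible with `σ`.  The elements
`x` with `x * σ x = 1` are counted in terms of the elements of `R` with the same property.
-/

set_option autoImplicit false
set_option linter.unusedSectionVars false
set_option linter.unusedVariables false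
set_option linter.style.haveILetI false

namespace Cfsg.Agent.Lib.GUCent

open Polynomial Cfsg.Agent.Lib.HermCount.Field

variable {K : Type*} [Field K] [Fintype K] {q : ℕ}

/-- The truncated norm equation: `1 + X` is a norm modulo every power of `X`. -/
lemma exists_norm_poly (hK : Fintype.card K = q ^ 2) (m : ℕ) (hm : 1 ≤ m) :
    ∃ p : K[X], p.coeff 0 = 1 ∧ X ^ m ∣ p * p.map (frobHom hK) - (1 + X) := by
  induction m, hm using Nat.le_induction with
  | base =>
    refine ⟨1, by simp, ?_⟩
    simp only [Polynomial.map_one, mul_one, pow_one]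
    exact ⟨-1, by ring⟩
  | succ m hm ih =>
    obtain ⟨p, hp0, s, hs⟩ := ih
    have hq2 := two_le hK
    have hq0 : q ≠ 0 := by omega
    have hff : ∀ f : K[X], (f.map (frobHom hK)).map (frobHom hK) = f := by
      intro f
      rw [Polynomial.map_map]
      have h : (frobHom hK).comp (frobHom hK) = RingHom.id K := by
        ext x
        exact frob_frob hK x
      rw [h, Polynomial.map_id]
    -- the error term is fixed by the Frobenius
    have hs1 : s.map (frobHom hK) = s := by
      have h1 := congrArg (Polynomial.map (frobHom hK)) hs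
      rw [Polynomial.map_sub, Polynomial.map_mul, hff, Polynomial.map_mul, Polynomial.map_pow, map_X,
        Polynomial.map_add, Polynomial.map_one, map_X, mul_comm (p.map (frobHom hK)), hs] at h1
      exact (mul_left_cancel₀ (pow_ne_zero _ X_ne_zero) h1).symm
    have hs0 : (s.coeff 0) ^ q = s.coeff 0 := by
      have h1 := congrArg (fun f => coeff f 0) hs1
      simp only [coeff_map] at h1
      exact h1
    obtain ⟨b, hb⟩ := exists_trace hK (s.coeff 0) hs0
    refine ⟨p - C b * X ^ m, ?_, ?_⟩
    · have : (C b * X ^ m : K[X]).coeff 0 = 0 := by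
        rw [coeff_C_mul, coeff_X_pow, if_neg (by omega), mul_zero]
      rw [coeff_sub, this, hp0, sub_zero]
    · set p' := p.map (frobHom hK) with hp'
      have hp'0 : p'.coeff 0 = 1 := by
        rw [hp', coeff_map, hp0, map_one]
      have e1 : (p - C b * X ^ m).map (frobHom hK) = p' - C (b ^ q) * X ^ m := by
        rw [Polynomial.map_sub, Polynomial.map_mul, map_C, Polynomial.map_pow, map_X]
        rfl
      set w : K[X] := s - C (b ^ q) * p - C b * p' + C (b * b ^ q) * X ^ m with hw
      have hw0 : w.coeff 0 = 0 := by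
        have h1 : (C (b * b ^ q) * X ^ m : K[X]).coeff 0 = 0 := by
          rw [coeff_C_mul, coeff_X_pow, if_neg (by omega), mul_zero]
        rw [hw, coeff_add, coeff_sub, coeff_sub, h1, coeff_C_mul, coeff_C_mul, hp0, hp'0, ← hb]
        ring
      obtain ⟨w', hw'⟩ := X_dvd_iff.mpr hw0
      refine ⟨w', ?_⟩
      rw [e1]
      have e2 : (p - C b * X ^ m) * (p' - C (b ^ q) * X ^ m) - (1 + X) =
          (p * p' - (1 + X)) - X ^ m * (C (b ^ q) * p + C b * p') + C (b * b ^ q) * X ^ m * X ^ m := by
        rw [C_mul]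
        ring
      rw [e2, hs]
      calc _ = X ^ m * w := by
            rw [hw]
            ring
        _ = X ^ (m + 1) * w' := by
            rw [hw', pow_succ]
            ring

variable {E : Type*} [Ring E] [Algebra K E]

/-- A semilinear anti-involution. -/
structure IsInv (q : ℕ) (σ : E →+ E) : Prop where
  mul : ∀ x y, σ (x * y) = σ y * σ x
  one : σ 1 = 1
  invol : ∀ x, σ (σ x) = x
  smul : ∀ (c : K) x, σ (c • x) = c ^ q • σ x

lemma IsInv.aeval (hK : Fintype.card K = q ^ 2) {σ : E →+ E} (h : IsInv (K := K) q σ) {z : E} (hz : σ z = z)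
    (p : K[X]) : σ (aeval z p) = aeval z (p.map (frobHom hK)) := by
  have hpow : ∀ n, σ (z ^ n) = z ^ n := by
    intro n
    induction n with
    | zero => simpa using h.one
    | succ n ih =>
      rw [pow_succ, h.mul, ih, hz]
      exact ((Commute.refl z).pow_right n).eq
  induction p using Polynomial.induction_on' with
  | add a b ha hb =>
    rw [map_add, map_add, Polynomial.map_add, map_add, ha, hb]
  | monomial n c =>
    rw [map_monomial, aeval_monomial, aeval_monomial, ← Algebra.smul_def, ← Algebra.smul_def, h.smul, hpow]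
    rfl

/-- Hermitian elements which are nilpotent are norms. -/
lemma exists_norm (hK : Fintype.card K = q ^ 2) {σ : E →+ E} (h : IsInv (K := K) q σ) {z : E}
    (hz : IsNilpotent z) (hσz : σ z = z) :
    ∃ y : Eˣ, (y : E) * σ y = 1 + z := by
  obtain ⟨m, hm⟩ := hz
  obtain ⟨p, hp0, s, hs⟩ := exists_norm_poly hK (m + 1) (by omega)
  have hm' : z ^ (m + 1) = 0 := by rw [pow_succ, hm, zero_mul]
  have e1 : aeval z p * σ (aeval z p) = 1 + z := by
    rw [h.aeval hK hσz, ← map_mul]
    have e2 : p * p.map (frobHom hK) = (1 + X) + X ^ (m + 1) * s := by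
      rw [← hs]
      ring
    rw [e2, map_add, map_add, map_mul, map_pow, aeval_X, hm', zero_mul, add_zero, map_one]
  have hcomm : Commute (aeval z p) (σ (aeval z p)) := by
    rw [h.aeval hK hσz]
    have h1 := (Commute.all p (p.map (frobHom hK))).map (aeval z)
    exact h1
  have hu : IsUnit ((aeval z p) * σ (aeval z p)) := by
    rw [e1]
    exact IsNilpotent.isUnit_one_add ⟨m, hm⟩
  have hy : IsUnit (aeval z p) := (hcomm.isUnit_mul_iff.mp hu).1
  obtain ⟨y, hy⟩ := hy
  exact ⟨y, by rw [hy, e1]⟩

variable {R : Type*} [Ring R]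

/-- The count. -/
theorem card_unitary [Finite E] [Finite R] (hK : Fintype.card K = q ^ 2) {σ : E →+ E} (h : IsInv (K := K) q σ)
    (ρ : E →+* R) (hρ : Function.Surjective ρ) (hnil : ∀ x, ρ x = 0 → IsNilpotent x)
    (τ : R → R) (hτ : ∀ x, ρ (σ x) = τ (ρ x)) :
    Nat.card {x : E // x * σ x = 1} =
        Nat.card {r : R // r * τ r = 1} * Nat.card {z : E // ρ z = 0 ∧ σ z = z} ∧
      Nat.card {z : E // ρ z = 0} = (Nat.card {z : E // ρ z = 0 ∧ σ z = z}) ^ 2 := by
  classical
  have hJ : ∀ x, ρ x = 0 → ρ (σ x) = 0 := by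
    intro x hx
    have h0 : τ 0 = 0 := by
      have := hτ 0
      rw [map_zero, map_zero] at this
      exact this.symm
    rw [hτ, hx, h0]
  -- the norms
  have hy : ∀ z : {z : E // ρ z = 0 ∧ σ z = z}, ∃ y : Eˣ, (y : E) * σ y = 1 + z.1 := fun z =>
    exists_norm hK h (hnil _ z.2.1) z.2.2
  choose yf hyf using hy
  have hσinv : ∀ y : Eˣ, σ (y : E) * σ ((y⁻¹ : Eˣ) : E) = 1 := by
    intro y
    rw [← h.mul, Units.inv_mul, h.one]
  -- first equivalence
  let e1 : {x : E // ρ (x * σ x) = 1} ≃ {z : E // ρ z = 0 ∧ σ z = z} × {x : E // x * σ x = 1} :=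
    { toFun := fun x =>
        let z : {z : E // ρ z = 0 ∧ σ z = z} := ⟨x.1 * σ x.1 - 1, by
          rw [map_sub, x.2, map_one, sub_self], by
          rw [map_sub, h.mul, h.invol, h.one]⟩
        (z, ⟨((yf z)⁻¹ : Eˣ) * x.1, by
          have e2 : x.1 * σ x.1 = (yf z : E) * σ (yf z) := by
            rw [hyf]
            simp only [z]
            abel
          rw [h.mul, mul_assoc, ← mul_assoc x.1, e2, mul_assoc, ← mul_assoc _ (yf z : E)]
          rw [Units.inv_mul, one_mul, hσinv]⟩)
      invFun := fun p => ⟨(yf p.1 : E) * p.2.1, by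
        rw [h.mul, mul_assoc, ← mul_assoc p.2.1, p.2.2, one_mul, hyf, map_add, map_one, p.1.2.1, add_zero]⟩
      left_inv := fun x => by
        apply Subtype.ext
        simp
      right_inv := fun p => by
        have e3 : ((yf p.1 : E) * p.2.1) * σ ((yf p.1 : E) * p.2.1) - 1 = p.1.1 := by
          rw [h.mul, mul_assoc, ← mul_assoc p.2.1, p.2.2, one_mul, hyf]
          abel
        have e4 : (⟨((yf p.1 : E) * p.2.1) * σ ((yf p.1 : E) * p.2.1) - 1, by
            rw [e3]; exact p.1.2⟩ : {z : E // ρ z = 0 ∧ σ z = z}) = p.1 := Subtype.ext e3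
        apply Prod.ext
        · exact e4
        · apply Subtype.ext
          show (((yf _)⁻¹ : Eˣ) : E) * ((yf p.1 : E) * p.2.1) = p.2.1
          simp only
          rw [e4]
          simp }
  -- second equivalence
  obtain ⟨s, hs⟩ := hρ.hasRightInverse
  let e2 : {x : E // ρ (x * σ x) = 1} ≃ {r : R // r * τ r = 1} × {z : E // ρ z = 0} :=
    { toFun := fun x => (⟨ρ x.1, by
          rw [← hτ, ← map_mul]
          exact x.2⟩, ⟨x.1 - s (ρ x.1), by
          rw [map_sub, hs, sub_self]⟩)
      invFun := fun p => ⟨s p.1.1 + p.2.1, by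
        have e3 : ρ (s p.1.1 + p.2.1) = p.1.1 := by
          rw [map_add, hs, p.2.2, add_zero]
        rw [map_mul, hτ, e3]
        exact p.1.2⟩
      left_inv := fun x => by
        apply Subtype.ext
        simp
      right_inv := fun p => by
        have e3 : ρ (s p.1.1 + p.2.1) = p.1.1 := by
          rw [map_add, hs, p.2.2, add_zero]
        apply Prod.ext
        · exact Subtype.ext e3
        · apply Subtype.ext
          simp only
          rw [e3]
          simp }
  -- third equivalence
  obtain ⟨c, hc⟩ := exists_trace hK (1 : K) (one_pow q)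
  obtain ⟨a, ha⟩ := exists_frob_ne hK
  set θ : K := a - a ^ q with hθ
  have hθq : θ ^ q = -θ := by
    have h1 := map_sub (frobHom hK) a (a ^ q)
    simp only [frobHom_apply] at h1
    rw [hθ, h1, frob_frob hK]
    ring
  have hθ0 : θ ≠ 0 := sub_ne_zero.mpr (Ne.symm ha)
  have hρsmul : ∀ (b : K) (x : E), ρ x = 0 → ρ (b • x) = 0 := by
    intro b x hx
    rw [Algebra.smul_def, map_mul, hx, mul_zero]
  have hcinv : ∀ w : E, σ (w - c • (w + σ w)) = -(w - c • (w + σ w)) := by
    intro w
    have h1 : (c ^ q) = 1 - c := by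
      rw [← hc]
      ring
    rw [map_sub, h.smul, map_add, h.invol, h1, sub_smul, one_smul, add_comm (σ w) w]
    abel
  let e3 : {z : E // ρ z = 0} ≃ {z : E // ρ z = 0 ∧ σ z = z} × {z : E // ρ z = 0 ∧ σ z = z} :=
    { toFun := fun w => (⟨w.1 + σ w.1, by
          rw [map_add, w.2, hJ _ w.2, add_zero], by
          rw [map_add, h.invol, add_comm]⟩,
        ⟨θ⁻¹ • (w.1 - c • (w.1 + σ w.1)), by
          apply hρsmul
          rw [map_sub, w.2, hρsmul _ _ (by rw [map_add, w.2, hJ _ w.2, add_zero]), sub_zero], by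
          rw [h.smul, hcinv, inv_pow, hθq, inv_neg, smul_neg, neg_smul, neg_neg]⟩)
      invFun := fun p => ⟨c • p.1.1 + θ • p.2.1, by
        rw [map_add, hρsmul _ _ p.1.2.1, hρsmul _ _ p.2.2.1, add_zero]⟩
      left_inv := fun w => by
        apply Subtype.ext
        simp only
        rw [smul_smul, mul_inv_cancel₀ hθ0, one_smul]
        abel
      right_inv := fun p => by
        have e4 : (c • p.1.1 + θ • p.2.1) + σ (c • p.1.1 + θ • p.2.1) = p.1.1 := by
          rw [map_add, h.smul, h.smul, p.1.2.2, p.2.2.2, hθq, neg_smul]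
          have h1 : c • p.1.1 + c ^ q • p.1.1 = p.1.1 := by
            rw [← add_smul, hc, one_smul]
          calc _ = (c • p.1.1 + c ^ q • p.1.1) + (θ • p.2.1 + -(θ • p.2.1)) := by abel
            _ = _ := by rw [h1, add_neg_cancel, add_zero]
        apply Prod.ext
        · exact Subtype.ext e4
        · apply Subtype.ext
          simp only
          rw [e4, add_sub_cancel_left, smul_smul, inv_mul_cancel₀ hθ0, one_smul] }
  have c1 := Nat.card_congr e1
  have c2 := Nat.card_congr e2
  have c3 := Nat.card_congr e3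
  rw [Nat.card_prod] at c1 c2 c3
  have hpos : 0 < Nat.card {z : E // ρ z = 0 ∧ σ z = z} := by
    haveI : Nonempty {z : E // ρ z = 0 ∧ σ z = z} := ⟨⟨0, map_zero _, map_zero _⟩⟩
    exact Nat.card_pos
  refine ⟨?_, ?_⟩
  · rw [c3] at c2
    rw [c1] at c2
    apply Nat.eq_of_mul_eq_mul_left hpos
    rw [c2]
    ring
  · rw [c3, sq]

end Cfsg.Agent.Lib.GUCent
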