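import Cfsg.Agent.Lib.GUCent.Abs
import Cfsg.Agent.Lib.Jordan.Cent

/-!
# Hermitian forms invariant under a unipotent matrix in Jordan form
-/

set_option autoImplicit false
set_option linter.unusedSectionVars false
set_option linter.unusedVariables false
set_option linter.style.haveILetI false

namespace Cfsg.Agent.Lib.GUCent

open Matrix Cfsg.Agent.Lib.HermCount.Field Cfsg.Agent.Lib.Jordan.Cent
open Cfsg

variable {K : Type*} [Field K] [Fintype K] {q : ℕ}

section star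

variable (hK : Fintype.card K = q ^ 2)
variable {α β γ : Type*} [Fintype α] [Fintype β] [Fintype γ]

/-- The conjugate transpose. -/
def st (M : Matrix α β K) : Matrix β α K := fun j i => (M i j) ^ q

lemma st_apply (M : Matrix α β K) (i : β) (j : α) : st (q := q) M i j = (M j i) ^ q := rfl

include hK

lemma st_st (M : Matrix α β K) : st (q := q) (st (q := q) M) = M := by
  ext i j
  exact frob_frob hK _

lemma st_mul (M : Matrix α β K) (N : Matrix β γ K) : st (q := q) (M * N) = st (q := q) N * st (q := q) M := by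
  ext i j
  simp only [st_apply, Matrix.mul_apply]
  have := map_sum (frobHom hK) (fun k => M j k * N k i) Finset.univ
  simp only [frobHom_apply] at this
  rw [this]
  refine Finset.sum_congr rfl fun k _ => ?_
  rw [mul_pow, mul_comm]

lemma st_add (M N : Matrix α β K) : st (q := q) (M + N) = st (q := q) M + st (q := q) N := by
  ext i j
  exact frob_add hK _ _

lemma st_smul (c : K) (M : Matrix α β K) : st (q := q) (c • M) = c ^ q • st (q := q) M := by
  ext i j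
  simp only [st_apply, Matrix.smul_apply, smul_eq_mul, mul_pow]

lemma st_one [DecidableEq α] : st (q := q) (1 : Matrix α α K) = 1 := by
  have hq2 := two_le hK
  ext i j
  simp only [st_apply, Matrix.one_apply]
  by_cases h : i = j
  · subst h
    simp
  · have h' : ¬ j = i := fun h1 => h h1.symm
    rw [if_neg h, if_neg h', zero_pow (by omega)]

end star

section sg

variable (hK : Fintype.card K = q ^ 2)
variable {ι : Type*} [Fintype ι] [DecidableEq ι]

/-- The adjoint with respect to the Hermitian matrix `Q`. -/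
noncomputable def sg (Q A : Matrix ι ι K) : Matrix ι ι K := Q⁻¹ * st (q := q) A * Q

variable {Q : Matrix ι ι K}

/-- Being Hermitian and invertible. -/
structure IsHM (q : ℕ) (Q : Matrix ι ι K) : Prop where
  herm : st (q := q) Q = Q
  unit : IsUnit Q.det

lemma IsHM.mul_inv (hQ : IsHM q Q) : Q * Q⁻¹ = 1 := Matrix.mul_nonsing_inv Q hQ.unit

lemma IsHM.inv_mul (hQ : IsHM q Q) : Q⁻¹ * Q = 1 := Matrix.nonsing_inv_mul Q hQ.unit

lemma IsHM.mul_sg (hQ : IsHM q Q) (A : Matrix ι ι K) : Q * sg (q := q) Q A = st (q := q) A * Q := by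
  rw [sg, ← mul_assoc, ← mul_assoc, hQ.mul_inv, one_mul]

include hK

lemma IsHM.sg_mul (hQ : IsHM q Q) (A A' : Matrix ι ι K) :
    sg (q := q) Q (A * A') = sg (q := q) Q A' * sg (q := q) Q A := by
  simp only [sg]
  rw [st_mul hK]
  calc Q⁻¹ * (st (q := q) A' * st (q := q) A) * Q = Q⁻¹ * st (q := q) A' * (Q * Q⁻¹) * st (q := q) A * Q := by
        rw [hQ.mul_inv]
        simp only [mul_one, mul_assoc]
    _ = _ := by simp only [mul_assoc]

lemma IsHM.sg_one (hQ : IsHM q Q) : sg (q := q) Q (1 : Matrix ι ι K) = 1 := by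
  simp only [sg]
  rw [st_one hK, mul_one, hQ.inv_mul]

lemma sg_add (A A' : Matrix ι ι K) : sg (q := q) Q (A + A') = sg (q := q) Q A + sg (q := q) Q A' := by
  simp only [sg]
  rw [st_add hK]
  simp only [mul_add, add_mul]

lemma sg_smul (c : K) (A : Matrix ι ι K) : sg (q := q) Q (c • A) = c ^ q • sg (q := q) Q A := by
  simp only [sg]
  rw [st_smul hK]
  simp only [Matrix.mul_smul, Matrix.smul_mul]

lemma IsHM.sg_sg (hQ : IsHM q Q) (A : Matrix ι ι K) : sg (q := q) Q (sg (q := q) Q A) = A := by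
  simp only [sg]
  rw [st_mul hK, st_mul hK, hQ.herm, st_st hK]
  have hinv : st (q := q) Q⁻¹ * Q = 1 := by
    have := st_mul hK Q Q⁻¹
    rw [hQ.mul_inv, st_one hK, hQ.herm] at this
    exact this.symm
  calc Q⁻¹ * (Q * (A * st (q := q) Q⁻¹)) * Q = (Q⁻¹ * Q) * A * (st (q := q) Q⁻¹ * Q) := by
        simp only [mul_assoc]
    _ = A := by rw [hQ.inv_mul, hinv, one_mul, mul_one]

end sg

section vanish

variable (hK : Fintype.card K = q ^ 2) {t : ℕ} {d : Fin t → ℕ}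

omit [Fintype K] in
/-- The powers of `Nil`. -/
lemma Nil_pow_apply (s : ℕ) (x y : Ix d) :
    ((Nil K d) ^ s) x y = if x.1 = y.1 ∧ (x.2 : ℕ) = (y.2 : ℕ) + s then 1 else 0 := by
  induction s generalizing y with
  | zero =>
    obtain ⟨l, a⟩ := x
    obtain ⟨k, c⟩ := y
    simp only [pow_zero, Matrix.one_apply, add_zero]
    by_cases h : l = k
    · subst h
      by_cases h2 : (a : ℕ) = c
      · have h3 : a = c := Fin.ext h2
        simp [h3]
      · have h3 : ¬ a = c := fun h => h2 (by rw [h])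
        simp [h2, h3]
    · simp [h]
  | succ s ih =>
    rw [pow_succ, mul_Nil]
    obtain ⟨l, a⟩ := x
    obtain ⟨k, c⟩ := y
    simp only
    by_cases h : (c : ℕ) + 1 < d k
    · rw [dif_pos h, ih]
      simp only
      congr 1
      have : (c : ℕ) + 1 + s = c + (s + 1) := by ring
      rw [this]
    · rw [dif_neg h]
      symm
      apply if_neg
      rintro ⟨rfl, h2⟩
      have := a.2
      omega

variable {Q : Matrix (Ix d) (Ix d) K} (hQ : IsHM q Q)
  (hJ : st (q := q) (jordanTypeMatrix d K) * Q * jordanTypeMatrix d K = Q)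

include hK hQ hJ

/-- The inverse of `J`. -/
lemma sg_J_mul : sg (q := q) Q (jordanTypeMatrix d K) * jordanTypeMatrix d K = 1 := by
  have h1 : sg (q := q) Q (jordanTypeMatrix d K) * jordanTypeMatrix d K =
      Q⁻¹ * (st (q := q) (jordanTypeMatrix d K) * Q * jordanTypeMatrix d K) := by
    simp only [sg, mul_assoc]
  rw [h1, hJ, hQ.inv_mul]

lemma J_mul_sg : jordanTypeMatrix d K * sg (q := q) Q (jordanTypeMatrix d K) = 1 :=
  mul_eq_one_comm.mp (sg_J_mul hK hQ hJ)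

/-- The adjoint of a commuting matrix commutes. -/
theorem sg_comm {A : Matrix (Ix d) (Ix d) K} (hA : A * Nil K d = Nil K d * A) :
    sg (q := q) Q A * Nil K d = Nil K d * sg (q := q) Q A := by
  rw [← comm_iff] at hA ⊢
  have h1 := sg_J_mul hK hQ hJ
  have h2 := J_mul_sg hK hQ hJ
  have h3 : sg (q := q) Q (jordanTypeMatrix d K) * sg (q := q) Q A =
      sg (q := q) Q A * sg (q := q) Q (jordanTypeMatrix d K) := by
    rw [← hQ.sg_mul hK, ← hQ.sg_mul hK, hA]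
  set J' := sg (q := q) Q (jordanTypeMatrix d K) with hJ'
  set X := sg (q := q) Q A with hX
  calc X * jordanTypeMatrix d K = (jordanTypeMatrix d K * J') * (X * jordanTypeMatrix d K) := by
        rw [h2, one_mul]
    _ = jordanTypeMatrix d K * (J' * X) * jordanTypeMatrix d K := by simp only [mul_assoc]
    _ = jordanTypeMatrix d K * X * (J' * jordanTypeMatrix d K) := by
        rw [h3]
        simp only [mul_assoc]
    _ = _ := by rw [h1, mul_one]

/-- The adjoint of the nilpotent part. -/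
lemma sg_Nil : sg (q := q) Q (Nil K d) = -sg (q := q) Q (jordanTypeMatrix d K) * Nil K d := by
  have h4 : sg (q := q) Q (1 + Nil K d) = 1 + sg (q := q) Q (Nil K d) := by
    rw [sg_add hK, hQ.sg_one hK]
  have h3 := sg_J_mul hK hQ hJ
  rw [J_eq] at h3 ⊢
  rw [mul_add, mul_one] at h3
  have h5 : sg (q := q) Q (Nil K d) + sg (q := q) Q (1 + Nil K d) * Nil K d = 0 := by
    have h6 := h3
    rw [h4] at h6
    rw [h4]
    have h7 : (1 : Matrix (Ix d) (Ix d) K) + sg (q := q) Q (Nil K d) + (1 + sg (q := q) Q (Nil K d)) * Nil K d = 1 + (sg (q := q) Q (Nil K d) + (1 + sg (q := q) Q (Nil K d)) * Nil K d) := by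
      rw [add_assoc]
    rw [h7] at h6
    exact add_eq_left.mp h6
  rw [neg_mul]
  exact eq_neg_of_add_eq_zero_left h5

lemma comm_sg_J : sg (q := q) Q (jordanTypeMatrix d K) * Nil K d = Nil K d * sg (q := q) Q (jordanTypeMatrix d K) := by
  apply sg_comm hK hQ hJ
  rw [J_eq, add_mul, mul_add, one_mul, mul_one]

/-- The adjoint of a power of the nilpotent part. -/
lemma st_Nil_pow (s : ℕ) : st (q := q) ((Nil K d) ^ s) * Q =
    Q * ((-sg (q := q) Q (jordanTypeMatrix d K)) ^ s * (Nil K d) ^ s) := by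
  set W := -sg (q := q) Q (jordanTypeMatrix d K) with hW
  have hcomm : Commute W (Nil K d) := by
    rw [hW]
    exact (show Commute _ _ from comm_sg_J hK hQ hJ).neg_left
  have h1 : st (q := q) (Nil K d) * Q = Q * (W * Nil K d) := by
    rw [← sg_Nil hK hQ hJ, hQ.mul_sg]
  induction s with
  | zero => simp [st_one hK]
  | succ s ih =>
    rw [pow_succ, st_mul hK, mul_assoc, ih, ← mul_assoc, h1, mul_assoc]
    congr 1
    calc W * Nil K d * (W ^ s * Nil K d ^ s) = W * (Nil K d * W ^ s) * Nil K d ^ s := by simp only [mul_assoc]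
      _ = W * (W ^ s * Nil K d) * Nil K d ^ s := by rw [(hcomm.pow_left s).eq]
      _ = W ^ (s + 1) * (Nil K d * Nil K d ^ s) := by rw [pow_succ']; simp only [mul_assoc]
      _ = _ := by rw [((Commute.refl (Nil K d)).pow_right s).eq]

/-- The entries of `st (N ^ s) * Q` in the first column. -/
lemma st_Nil_pow_apply (s : ℕ) (k : Fin t) (h0 : 0 < d k) (hs : s < d k) (y : Ix d) :
    (st (q := q) ((Nil K d) ^ s) * Q) ⟨k, ⟨0, h0⟩⟩ y = Q ⟨k, ⟨s, hs⟩⟩ y := by
  have hq2 := two_le hK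
  rw [Matrix.mul_apply, Finset.sum_eq_single (⟨k, ⟨s, hs⟩⟩ : Ix d)]
  · rw [st_apply, Nil_pow_apply]
    simp
  · rintro ⟨m, e⟩ - hne
    rw [st_apply, Nil_pow_apply, if_neg, zero_pow (by omega), zero_mul]
    rintro ⟨rfl, h2⟩
    apply hne
    congr 1
    apply Fin.ext
    simpa using h2
  · simp

/-- The vanishing of entries of the form. -/
theorem Q_zero (x y : Ix d) (h : d y.1 ≤ (x.2 : ℕ) + y.2) : Q x y = 0 := by
  obtain ⟨m, a⟩ := x
  have h0 : 0 < d m := by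
    have := a.2
    omega
  have h1 := st_Nil_pow_apply hK hQ hJ a m h0 a.2 y
  rw [st_Nil_pow hK hQ hJ, ← mul_assoc, Matrix.mul_apply] at h1
  have h2 : Q ⟨m, a⟩ y = Q ⟨m, ⟨a, a.2⟩⟩ y := rfl
  rw [h2, ← h1]
  apply Finset.sum_eq_zero
  rintro ⟨z1, z2⟩ -
  rw [Nil_pow_apply, if_neg, mul_zero]
  rintro ⟨h3, h4⟩
  simp only at h3 h4 h
  subst h3
  have := z2.2
  omega

theorem Q_zero' (x y : Ix d) (h : d x.1 ≤ (x.2 : ℕ) + y.2) : Q x y = 0 := by
  have h1 : Q x y = (Q y x) ^ q := by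
    have := congrFun (congrFun hQ.herm x) y
    rw [st_apply] at this
    exact this.symm
  have hq2 := two_le hK
  rw [h1, Q_zero hK hQ hJ y x (by omega), zero_pow (by omega)]

/-- The form on the blocks of size `i`. -/
noncomputable def gr (Q : Matrix (Ix d) (Ix d) K) (i : ℕ) : Matrix (Tp d i) (Tp d i) K :=
  fun k l => B Q k.1 l.1 0 (i - 1)

/-- The adjoint on the residues. -/
theorem res_sg (hd : ∀ k, 1 ≤ d k) {A : Matrix (Ix d) (Ix d) K} (hA : A * Nil K d = Nil K d * A) (i : ℕ) :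
    st (q := q) (res A i) * gr Q i = gr Q i * res (sg (q := q) Q A) i := by
  have hA' := sg_comm hK hQ hJ hA
  have hq2 := two_le hK
  ext ⟨k, hk⟩ ⟨l, hl⟩
  have hi : 1 ≤ i := hk ▸ hd k
  have hk0 : 0 < d k := hd k
  have hl0 : i - 1 < d l := by omega
  have key := congrFun (congrFun (hQ.mul_sg A) ⟨k, ⟨0, hk0⟩⟩) ⟨l, ⟨i - 1, hl0⟩⟩
  rw [Matrix.mul_apply, Matrix.mul_apply] at key
  rw [Matrix.mul_apply, Matrix.mul_apply]
  have e1 : ∑ m : Tp d i, st (q := q) (res A i) ⟨k, hk⟩ m * gr Q i m ⟨l, hl⟩ =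
      ∑ y, st (q := q) A ⟨k, ⟨0, hk0⟩⟩ y * Q y ⟨l, ⟨i - 1, hl0⟩⟩ := by
    apply Finset.sum_of_injOn (fun m : Tp d i => (⟨m.1, ⟨0, hd m.1⟩⟩ : Ix d))
    · intro a _ b _ hab
      exact Subtype.ext (congrArg Sigma.fst hab)
    · intro a _
      exact Finset.mem_univ _
    · rintro ⟨m, e⟩ - hnot
      by_contra hne
      have h1 : (A ⟨m, e⟩ ⟨k, ⟨0, hk0⟩⟩) ^ q ≠ 0 := left_ne_zero_of_mul hne
      have h1' : A ⟨m, e⟩ ⟨k, ⟨0, hk0⟩⟩ ≠ 0 := fun h => h1 (by rw [h, zero_pow (by omega)])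
      have h2 : Q ⟨m, e⟩ ⟨l, ⟨i - 1, hl0⟩⟩ ≠ 0 := right_ne_zero_of_mul hne
      obtain ⟨h3, h4⟩ := entry_ne_zero hA _ _ h1'
      have h5 : ¬ d l ≤ (e : ℕ) + (i - 1) := fun h => h2 (Q_zero hK hQ hJ _ _ h)
      have h6 : ¬ d m ≤ (e : ℕ) + (i - 1) := fun h => h2 (Q_zero' hK hQ hJ _ _ h)
      simp only at h3 h4
      have he : (e : ℕ) = 0 := by omega
      have hm : d m = i := by omega
      apply hnot
      simp only [Finset.coe_univ, Set.image_univ, Set.mem_range]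
      refine ⟨⟨m, hm⟩, ?_⟩
      congr 1
      exact Fin.ext he.symm
    · rintro ⟨m, hm⟩ -
      simp only [st_apply, res, gr]
      rw [B, dif_pos ⟨hd m, hd k⟩, B, dif_pos ⟨hd m, hl0⟩]
  have e2 : ∑ m : Tp d i, gr Q i ⟨k, hk⟩ m * res (sg (q := q) Q A) i m ⟨l, hl⟩ =
      ∑ y, Q ⟨k, ⟨0, hk0⟩⟩ y * sg (q := q) Q A y ⟨l, ⟨i - 1, hl0⟩⟩ := by
    apply Finset.sum_of_injOn (fun m : Tp d i => (⟨m.1, ⟨i - 1, by have := m.2; omega⟩⟩ : Ix d))
    · intro a _ b _ hab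
      exact Subtype.ext (congrArg Sigma.fst hab)
    · intro a _
      exact Finset.mem_univ _
    · rintro ⟨m, e⟩ - hnot
      by_contra hne
      have h1 : Q ⟨k, ⟨0, hk0⟩⟩ ⟨m, e⟩ ≠ 0 := left_ne_zero_of_mul hne
      have h2 : sg (q := q) Q A ⟨m, e⟩ ⟨l, ⟨i - 1, hl0⟩⟩ ≠ 0 := right_ne_zero_of_mul hne
      obtain ⟨h3, h4⟩ := entry_ne_zero hA' _ _ h2
      have h5 : ¬ d k ≤ 0 + (e : ℕ) := fun h => h1 (Q_zero' hK hQ hJ _ _ h)
      simp only at h3 h4 h5
      have hee := e.2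
      have he : (e : ℕ) = i - 1 := by omega
      have hm : d m = i := by omega
      apply hnot
      simp only [Finset.coe_univ, Set.image_univ, Set.mem_range]
      refine ⟨⟨m, hm⟩, ?_⟩
      congr 1
      exact Fin.ext he.symm
    · rintro ⟨m, hm⟩ -
      simp only [res, gr]
      have hm' : i - 1 < d m := by omega
      have e3 : sg (q := q) Q A ⟨m, ⟨i - 1, hm'⟩⟩ ⟨l, ⟨i - 1, hl0⟩⟩ = B (sg (q := q) Q A) m l (i - 1) (i - 1) := by
        rw [B, dif_pos ⟨hm', hl0⟩]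
      rw [e3, entry_diag hA' m l (hm.trans hl.symm) (i - 1) hm', B.eq_1 Q k m, dif_pos ⟨hk0, hm'⟩]
  rw [e1, e2, key]

/-- The form on the residues is Hermitian up to a sign. -/
theorem st_gr (hd : ∀ k, 1 ≤ d k) (i : ℕ) : st (q := q) (gr Q i) = (-1 : K) ^ (i - 1) • gr Q i := by
  have hq2 := two_le hK
  ext ⟨k, hk⟩ ⟨l, hl⟩
  have hi : 1 ≤ i := hk ▸ hd k
  have hk' : i - 1 < d k := by omega
  have hl' : i - 1 < d l := by omega
  simp only [st_apply, gr, Matrix.smul_apply, smul_eq_mul]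
  have e0 : B Q l k 0 (i - 1) = Q ⟨l, ⟨0, hd l⟩⟩ ⟨k, ⟨i - 1, hk'⟩⟩ := by
    rw [B, dif_pos ⟨hd l, hk'⟩]
  have e1 : B Q k l 0 (i - 1) = Q ⟨k, ⟨0, hd k⟩⟩ ⟨l, ⟨i - 1, hl'⟩⟩ := by
    rw [B, dif_pos ⟨hd k, hl'⟩]
  have e2 : (Q ⟨l, ⟨0, hd l⟩⟩ ⟨k, ⟨i - 1, hk'⟩⟩) ^ q = Q ⟨k, ⟨i - 1, hk'⟩⟩ ⟨l, ⟨0, hd l⟩⟩ := by
    have := congrFun (congrFun hQ.herm ⟨k, ⟨i - 1, hk'⟩⟩) ⟨l, ⟨0, hd l⟩⟩
    rw [st_apply] at this
    exact this
  rw [e0, e1, e2, ← st_Nil_pow_apply hK hQ hJ (i - 1) k (hd k) hk', st_Nil_pow hK hQ hJ, ← mul_assoc,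
    Matrix.mul_apply, Finset.sum_eq_single (⟨l, ⟨i - 1, hl'⟩⟩ : Ix d)]
  · rw [Nil_pow_apply, if_pos ⟨rfl, by simp⟩, mul_one]
    -- the power of `W` on the last vector
    set W := -sg (q := q) Q (jordanTypeMatrix d K) with hW
    have hlast : ∀ (x : Ix d), (Nil K d) x ⟨l, ⟨i - 1, hl'⟩⟩ = 0 := by
      rintro ⟨x1, x2⟩
      have := Nil_pow_apply (K := K) (d := d) 1 ⟨x1, x2⟩ ⟨l, ⟨i - 1, hl'⟩⟩
      rw [pow_one] at this
      rw [this, if_neg]
      rintro ⟨h1, h2⟩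
      simp only at h1 h2
      subst h1
      have h3 := x2.2
      omega
    have hJe : (jordanTypeMatrix d K).mulVec (Pi.single (⟨l, ⟨i - 1, hl'⟩⟩ : Ix d) 1) = Pi.single (⟨l, ⟨i - 1, hl'⟩⟩ : Ix d) 1 := by
      rw [J_eq, Matrix.add_mulVec, Matrix.one_mulVec]
      have : (Nil K d).mulVec (Pi.single (⟨l, ⟨i - 1, hl'⟩⟩ : Ix d) 1) = 0 := by
        funext x
        rw [Matrix.mulVec_single_one]
        exact hlast x
      rw [this, add_zero]
    have hJ'e : (sg (q := q) Q (jordanTypeMatrix d K)).mulVec (Pi.single (⟨l, ⟨i - 1, hl'⟩⟩ : Ix d) 1) = Pi.single (⟨l, ⟨i - 1, hl'⟩⟩ : Ix d) 1 := by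
      have h1 := sg_J_mul hK hQ hJ
      calc _ = (sg (q := q) Q (jordanTypeMatrix d K)).mulVec ((jordanTypeMatrix d K).mulVec (Pi.single (⟨l, ⟨i - 1, hl'⟩⟩ : Ix d) 1)) := by rw [hJe]
        _ = _ := by rw [Matrix.mulVec_mulVec, h1, Matrix.one_mulVec]
    have hWe : ∀ s : ℕ, (W ^ s).mulVec (Pi.single (⟨l, ⟨i - 1, hl'⟩⟩ : Ix d) 1) = (-1 : K) ^ s • (Pi.single (⟨l, ⟨i - 1, hl'⟩⟩ : Ix d) 1 : Ix d → K) := by
      intro s
      induction s with
      | zero => rw [pow_zero, pow_zero, Matrix.one_mulVec, one_smul]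
      | succ s ih =>
        rw [pow_succ, ← Matrix.mulVec_mulVec, hW, Matrix.neg_mulVec, hJ'e, ← hW, Matrix.mulVec_neg, ih, pow_succ]
        simp
    have h2 : (Q * W ^ (i - 1)) ⟨k, ⟨0, hd k⟩⟩ ⟨l, ⟨i - 1, hl'⟩⟩ =
        (Q.mulVec ((W ^ (i - 1)).mulVec (Pi.single (⟨l, ⟨i - 1, hl'⟩⟩ : Ix d) 1))) ⟨k, ⟨0, hd k⟩⟩ := by
      rw [Matrix.mulVec_mulVec, Matrix.mulVec_single_one]
      rfl
    rw [h2, hWe, Matrix.mulVec_smul, Pi.smul_apply, Matrix.mulVec_single_one]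
    rfl
  · rintro ⟨m, e⟩ - hne
    rw [Nil_pow_apply, if_neg, mul_zero]
    rintro ⟨rfl, h2⟩
    apply hne
    congr 1
    apply Fin.ext
    simpa using h2
  · simp

/-- The form on the residues is nondegenerate. -/
theorem gr_unit (hd : ∀ k, 1 ≤ d k) (i : ℕ) : IsUnit (gr Q i).det := by
  classical
  rw [isUnit_iff_ne_zero]
  by_cases hne : Nonempty (Tp d i)
  swap
  · haveI : IsEmpty (Tp d i) := not_nonempty_iff.mp hne
    rw [Matrix.det_isEmpty]
    exact one_ne_zero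
  obtain ⟨⟨m₀, hm₀⟩⟩ := hne
  have hi : 1 ≤ i := hm₀ ▸ hd m₀
  let τ : Equiv.Perm (Ix d) := Equiv.sigmaCongrRight fun k => Fin.revPerm
  have hτ : ∀ (k : Fin t) (c : Fin (d k)), τ ⟨k, c⟩ = ⟨k, c.rev⟩ := fun k c => rfl
  let Q' : Matrix (Ix d) (Ix d) K := Q.submatrix id τ
  let b : Ix d → ℤ ×ₗ ℕ := fun x => toLex (2 * ((x.2 : ℕ) : ℤ) - (d x.1 : ℤ), d x.1)
  have hb : Q'.BlockTriangular b := by
    rintro ⟨l, a⟩ ⟨k, c⟩ hlt
    by_contra hne
    have hne' : Q ⟨l, a⟩ ⟨k, c.rev⟩ ≠ 0 := hne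
    have h1 : ¬ d k ≤ (a : ℕ) + (c.rev : ℕ) := fun h => hne' (Q_zero hK hQ hJ _ _ h)
    have h2 : ¬ d l ≤ (a : ℕ) + (c.rev : ℕ) := fun h => hne' (Q_zero' hK hQ hJ _ _ h)
    rw [Fin.val_rev] at h1 h2
    have ha := a.2
    have hc := c.2
    rw [Prod.Lex.toLex_lt_toLex] at hlt
    simp only at hlt
    omega
  have hdet : Q'.det ≠ 0 := by
    have h1 : Q'.det = (Equiv.Perm.sign τ : ℤ) * Q.det := Matrix.det_permute' τ Q
    rw [h1]
    apply mul_ne_zero
    · have h2 : ((Equiv.Perm.sign τ : ℤˣ) : ℤ) = 1 ∨ ((Equiv.Perm.sign τ : ℤˣ) : ℤ) = -1 := by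
        rcases Int.units_eq_one_or (Equiv.Perm.sign τ) with h | h <;> simp [h]
      rcases h2 with h2 | h2 <;> rw [h2] <;> simp
    · exact hQ.unit.ne_zero
  rw [hb.det, Finset.prod_ne_zero_iff] at hdet
  let L : ℤ ×ₗ ℕ := toLex (-(i : ℤ), i)
  have hbi : ∀ m : Tp d i, b ⟨m.1, ⟨0, hd m.1⟩⟩ = L := by
    rintro ⟨m, hm⟩
    simp only [b, L, hm]
    congr 2
    simp
  have h3 := hdet L (Finset.mem_image.mpr ⟨⟨m₀, ⟨0, hd m₀⟩⟩, Finset.mem_univ _, hbi ⟨m₀, hm₀⟩⟩)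
  let ξ : Tp d i ≃ {x : Ix d // b x = L} :=
    { toFun := fun m => ⟨⟨m.1, ⟨0, hd m.1⟩⟩, hbi m⟩
      invFun := fun x => ⟨x.1.1, by
        have h4 := congrArg (fun y => (ofLex y).2) x.2
        exact h4⟩
      left_inv := fun m => rfl
      right_inv := by
        rintro ⟨⟨k, c⟩, hx⟩
        have h4 := congrArg (fun y => (ofLex y).2) hx
        have h5 := congrArg (fun y => (ofLex y).1) hx
        simp only [b, L, ofLex_toLex] at h4 h5
        have hc : (c : ℕ) = 0 := by omega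
        apply Subtype.ext
        simp only
        congr 1
        exact Fin.ext hc.symm }
  have h6 : gr Q i = (Q'.toSquareBlock b L).submatrix ξ ξ := by
    ext ⟨k, hk⟩ ⟨l, hl⟩
    have h7 : i - 1 < d l := by omega
    show B Q k l 0 (i - 1) = Q ⟨k, ⟨0, hd k⟩⟩ (τ ⟨l, ⟨0, hd l⟩⟩)
    rw [B, dif_pos ⟨hd k, h7⟩, hτ]
    congr 2
    apply Fin.ext
    rw [Fin.val_rev]
    show i - 1 = d l - (0 + 1)
    omega
  rw [h6, Matrix.det_submatrix_equiv_self]
  exact h3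

end vanish

end Cfsg.Agent.Lib.GUCent
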