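import Cfsg.Agent.Lib.GUCent.Res
import Cfsg.Agent.Lib.Witt.HermModel

/-!
# The isometry group of a nondegenerate form on the residues
-/

set_option autoImplicit false
set_option linter.unusedSectionVars false
set_option linter.unusedVariables false
set_option linter.style.haveILetI false

namespace Cfsg.Agent.Lib.GUCent

open Matrix Module Cfsg.Agent.Lib.HermCount.Field Cfsg.Agent.Lib.HermCount.Space
open Cfsg.Agent.Lib.Witt.HermModel (exists_model exists_GU_of_isometry)
open Cfsg

section isom

variable {K : Type*} [Field K] [Fintype K] {q : ℕ} (hK : Fintype.card K = q ^ 2)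
variable {ι : Type*} [Fintype ι] [DecidableEq ι]

/-- The Hermitian form of a matrix. -/
def hf (q : ℕ) (G : Matrix ι ι K) (x y : ι → K) : K := ∑ a, (y a) ^ q * (G.mulVec x) a

omit [Fintype K] in
lemma hf_single (q : ℕ) (hq : q ≠ 0) (G : Matrix ι ι K) (a b : ι) :
    hf q G (Pi.single b 1) (Pi.single a 1) = G a b := by
  unfold hf
  rw [Finset.sum_eq_single a]
  · rw [Matrix.mulVec_single_one]
    simp
  · intro c _ hc
    rw [Pi.single_eq_of_ne hc, zero_pow hq, zero_mul]
  · simp

include hK

lemma hf_hspace {G : Matrix ι ι K} (hG : IsHM q G) : HSpace q (hf q G) where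
  add_left x y z := by
    unfold hf
    rw [Matrix.mulVec_add, ← Finset.sum_add_distrib]
    refine Finset.sum_congr rfl fun a _ => ?_
    rw [Pi.add_apply, mul_add]
  smul_left c x z := by
    unfold hf
    rw [Matrix.mulVec_smul, Finset.mul_sum]
    refine Finset.sum_congr rfl fun a _ => ?_
    rw [Pi.smul_apply, smul_eq_mul]
    ring
  conj x y := by
    unfold hf
    have h1 := map_sum (frobHom hK) (fun a => (y a) ^ q * (G.mulVec x) a) Finset.univ
    simp only [frobHom_apply] at h1
    rw [h1]
    have h2 : ∀ a, ((y a) ^ q * (G.mulVec x) a) ^ q = y a * ∑ b, G b a * (x b) ^ q := by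
      intro a
      rw [mul_pow, frob_frob hK]
      congr 1
      simp only [Matrix.mulVec, dotProduct]
      have h3 := map_sum (frobHom hK) (fun b => G a b * x b) Finset.univ
      simp only [frobHom_apply] at h3
      rw [h3]
      refine Finset.sum_congr rfl fun b _ => ?_
      rw [mul_pow]
      congr 1
      have := congrFun (congrFun hG.herm b) a
      rw [st_apply] at this
      exact this
    simp_rw [h2]
    simp only [Matrix.mulVec, dotProduct, Finset.mul_sum]
    rw [Finset.sum_comm]
    refine Finset.sum_congr rfl fun a _ => Finset.sum_congr rfl fun b _ => ?_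
    ring
  nd x hx := by
    have hq2 := two_le hK
    have h1 : G.mulVec x = 0 := by
      funext a
      have := hx (Pi.single a 1)
      unfold hf at this
      rw [Finset.sum_eq_single a] at this
      · simpa using this
      · intro c _ hc
        rw [Pi.single_eq_of_ne hc, zero_pow (by omega), zero_mul]
      · simp
    have h2 := congrArg (G⁻¹.mulVec) h1
    rw [Matrix.mulVec_mulVec, Matrix.nonsing_inv_mul _ hG.unit, Matrix.one_mulVec, Matrix.mulVec_zero] at h2
    exact h2

lemma hf_mulVec (r G : Matrix ι ι K) (x y : ι → K) :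
    hf q G (r.mulVec x) (r.mulVec y) = hf q (st (q := q) r * G * r) x y := by
  unfold hf
  rw [← Matrix.mulVec_mulVec, ← Matrix.mulVec_mulVec]
  generalize G.mulVec (r.mulVec x) = v
  have h1 : ∀ a, (∑ b, r a b * y b) ^ q = ∑ b, (r a b) ^ q * (y b) ^ q := by
    intro a
    have h3 := map_sum (frobHom hK) (fun b => r a b * y b) Finset.univ
    simp only [frobHom_apply] at h3
    rw [h3]
    refine Finset.sum_congr rfl fun b _ => ?_
    rw [mul_pow]
  simp only [Matrix.mulVec, dotProduct, h1, Finset.sum_mul, Finset.mul_sum, st_apply]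
  rw [Finset.sum_comm]
  refine Finset.sum_congr rfl fun a _ => Finset.sum_congr rfl fun b _ => ?_
  ring

/-- The isometries of a form. -/
theorem isom_iff {G r : Matrix ι ι K} :
    (∀ x y, hf q G (r.mulVec x) (r.mulVec y) = hf q G x y) ↔ st (q := q) r * G * r = G := by
  have hq2 := two_le hK
  constructor
  · intro h
    ext a b
    rw [← hf_single q (by omega) (st (q := q) r * G * r) a b, ← hf_mulVec hK, h, hf_single q (by omega)]
  · intro h x y
    rw [hf_mulVec hK, h]

/-- A scalar which makes a form with a sign Hermitian. -/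
theorem exists_zeta (s : ℕ) : ∃ ζ : K, ζ ≠ 0 ∧ ζ ^ q * (-1) ^ s = ζ := by
  rcases Nat.even_or_odd s with h | h
  · exact ⟨1, one_ne_zero, by rw [h.neg_one_pow, one_pow, mul_one]⟩
  · obtain ⟨a, ha⟩ := exists_frob_ne hK
    refine ⟨a - a ^ q, sub_ne_zero.mpr (Ne.symm ha), ?_⟩
    have h1 := map_sub (frobHom hK) a (a ^ q)
    simp only [frobHom_apply] at h1
    rw [h1, frob_frob hK, h.neg_one_pow]
    ring

/-- The count of the isometries of a form. -/
theorem card_isom {a : ℕ} (ha : Fintype.card ι = a) {g : Matrix ι ι K} (hg : IsUnit g.det) (s : ℕ)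
    (hs : st (q := q) g = (-1 : K) ^ s • g) :
    Nat.card {r : Matrix ι ι K // r * sg (q := q) g r = 1} = Nat.card (Cfsg.GU a K q) := by
  classical
  obtain ⟨ζ, hζ0, hζ⟩ := exists_zeta hK (K := K) s
  set G : Matrix ι ι K := ζ • g with hG
  have hGH : IsHM q G := by
    refine ⟨?_, ?_⟩
    · rw [hG, st_smul hK, hs, smul_smul, hζ]
    · rw [hG, Matrix.det_smul]
      exact (IsUnit.mk0 _ (pow_ne_zero _ hζ0)).mul hg
  have hcond : ∀ r : Matrix ι ι K, r * sg (q := q) g r = 1 ↔ st (q := q) r * G * r = G := by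
    intro r
    rw [mul_eq_one_comm]
    have h1 : st (q := q) r * G * r = ζ • (st (q := q) r * g * r) := by
      rw [hG, Matrix.mul_smul, Matrix.smul_mul]
    rw [h1, hG]
    constructor
    · intro h
      congr 1
      have h2 : g * (sg (q := q) g r * r) = st (q := q) r * g * r := by
        simp only [sg]
        calc g * (g⁻¹ * st (q := q) r * g * r) = (g * g⁻¹) * st (q := q) r * g * r := by
              simp only [mul_assoc]
          _ = _ := by rw [Matrix.mul_nonsing_inv _ hg, one_mul]
      rw [← h2, h, mul_one]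
    · intro h
      have h3 : st (q := q) r * g * r = g := smul_right_injective _ hζ0 h
      simp only [sg]
      calc g⁻¹ * st (q := q) r * g * r = g⁻¹ * (st (q := q) r * g * r) := by simp only [mul_assoc]
        _ = 1 := by rw [h3, Matrix.nonsing_inv_mul _ hg]
  haveI : Finite (ι → K) := inferInstance
  have S := hf_hspace hK hGH
  obtain ⟨ψ, hψ⟩ := exists_model S hK a (by rw [Module.finrank_fintype_fun_eq_card K, ha])
  let Tm : ↥(Cfsg.GU a K q) → ((ι → K) →ₗ[K] (ι → K)) := fun A =>
    (ψ : (Fin a → K) →ₗ[K] (ι → K)) ∘ₗ Matrix.toLin' (A.1.1 : Matrix (Fin a) (Fin a) K) ∘ₗ (ψ.symm : (ι → K) →ₗ[K] (Fin a → K))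
  have hTm : ∀ A v, Tm A v = ψ ((A.1.1 : Matrix (Fin a) (Fin a) K).mulVec (ψ.symm v)) := fun A v => rfl
  have hmem : ∀ A : ↥(Cfsg.GU a K q), LinearMap.toMatrix' (Tm A) * sg (q := q) g (LinearMap.toMatrix' (Tm A)) = 1 := by
    intro A
    rw [hcond, ← isom_iff hK]
    intro x y
    rw [LinearMap.toMatrix'_mulVec, LinearMap.toMatrix'_mulVec, hTm, hTm, hψ]
    have h1 := A.2 (ψ.symm x) (ψ.symm y)
    have h2 : Cfsg.hermForm a K q ((A.1.1 : Matrix (Fin a) (Fin a) K).mulVec (ψ.symm x))
        ((A.1.1 : Matrix (Fin a) (Fin a) K).mulVec (ψ.symm y)) = Cfsg.hermForm a K q (ψ.symm x) (ψ.symm y) := h1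
    rw [h2, ← hψ, ψ.apply_symm_apply, ψ.apply_symm_apply]
  let F : ↥(Cfsg.GU a K q) → {r : Matrix ι ι K // r * sg (q := q) g r = 1} := fun A =>
    ⟨LinearMap.toMatrix' (Tm A), hmem A⟩
  have hF : Function.Bijective F := by
    constructor
    · intro A A' h
      have h1 : Tm A = Tm A' := by
        have h2 := congrArg Subtype.val h
        exact LinearMap.toMatrix'.injective h2
      apply Subtype.ext
      apply Units.ext
      apply Matrix.mulVec_injective
      funext v
      have h3 := LinearMap.congr_fun h1 (ψ v)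
      rw [hTm, hTm, ψ.symm_apply_apply] at h3
      exact ψ.injective h3
    · rintro ⟨r, hr⟩
      have hi := (isom_iff hK).mpr ((hcond r).mp hr)
      let f : (Fin a → K) →ₗ[K] (Fin a → K) :=
        (ψ.symm : (ι → K) →ₗ[K] (Fin a → K)) ∘ₗ Matrix.toLin' r ∘ₗ (ψ : (Fin a → K) →ₗ[K] (ι → K))
      have hf1 : ∀ x, ψ (f x) = r.mulVec (ψ x) := fun x => by
        simp [f]
      obtain ⟨A, hA⟩ := exists_GU_of_isometry hK f (by
        intro x y
        rw [← hψ, ← hψ, hf1, hf1, hi])
      refine ⟨A, Subtype.ext ?_⟩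
      show LinearMap.toMatrix' (Tm A) = r
      have h5 : Tm A = Matrix.toLin' r := by
        apply LinearMap.ext
        intro v
        rw [hTm]
        have h6 : (A.1.1 : Matrix (Fin a) (Fin a) K).mulVec (ψ.symm v) = f (ψ.symm v) := hA _
        rw [h6, hf1, ψ.apply_symm_apply]
        rfl
      rw [h5, LinearMap.toMatrix'_toLin']
  exact (Nat.card_eq_of_bijective F hF).symm

end isom

end Cfsg.Agent.Lib.GUCent
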