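import Cfsg.Agent.Lib.GUCent.Isom
import Cfsg.Agent.Lib.Classical.HermOrders
import Cfsg.Agent.S2581

/-!
# The order of the centralizer of a unipotent element of the general unitary group
-/

set_option autoImplicit false
set_option linter.unusedSectionVars false
set_option linter.unusedVariables false
set_option linter.style.haveILetI false

namespace Cfsg.Agent.Lib.GUCent

open Matrix Cfsg.Agent.Lib.HermCount.Field Cfsg.Agent.Lib.Jordan.Cent
open Cfsg

/-- A surjective ring homomorphism has fibres of constant size. -/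
lemma card_eq_mul_ker {E R : Type*} [Ring E] [Ring R] (ρ : E →+* R) (hρ : Function.Surjective ρ) :
    Nat.card E = Nat.card R * Nat.card {z : E // ρ z = 0} := by
  let s := Function.surjInv hρ
  have hs : ∀ r, ρ (s r) = r := Function.surjInv_eq hρ
  let e : E ≃ R × {z : E // ρ z = 0} :=
    { toFun := fun x => (ρ x, ⟨x - s (ρ x), by rw [map_sub, hs, sub_self]⟩)
      invFun := fun p => s p.1 + p.2.1
      left_inv := fun x => by simp
      right_inv := by
        rintro ⟨r, z, hz⟩
        have h1 : ρ (s r + z) = r := by rw [map_add, hs, hz, add_zero]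
        apply Prod.ext
        · exact h1
        · apply Subtype.ext
          show s r + z - s (ρ (s r + z)) = z
          rw [h1]
          abel }
  rw [Nat.card_congr e, Nat.card_prod]

section count

variable {K : Type*} [Field K] [Fintype K] {q : ℕ} (hK : Fintype.card K = q ^ 2) {t : ℕ} {d : Fin t → ℕ}
  {Q : Matrix (Ix d) (Ix d) K} (hQ : IsHM q Q)
  (hJ : st (q := q) (jordanTypeMatrix d K) * Q * jordanTypeMatrix d K = Q)

/-- The multiplicity of the blocks of size `i`. -/
abbrev mlt (d : Fin t → ℕ) (i : ℕ) : ℕ := (Finset.univ.filter (fun k : Fin t => d k = i)).card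

/-- The count of the commutant elements which are unitary. -/
theorem card_cent_abs (hd : ∀ k, 1 ≤ d k) {N : ℕ} (hN : ∀ k, d k < N) :
    Nat.card {x : Cm K d // x * sgE hK hQ hJ x = 1} =
      (∏ i : Fin N, Nat.card (Cfsg.GU (mlt d i) K q)) *
        q ^ (2 * (∑ i ∈ Finset.range N, ∑ j ∈ Finset.range N,
            if i < j then i * mlt d i * mlt d j else 0) +
          ∑ i ∈ Finset.range N, (i - 1) * mlt d i ^ 2) := by
  classical
  obtain ⟨h1, h2⟩ := card_unitary hK (sgE_inv hK hQ hJ) (resHom hd N) (resHom_surj hd hN)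
    (fun x h => resHom_nil hd hN x h) (tauR (q := q) Q N) (resHom_sgE hK hQ hJ hd N)
  rw [h1]
  congr 1
  · let e : {r : (i : Fin N) → Matrix (Tp d i) (Tp d i) K // r * tauR (q := q) Q N r = 1} ≃
        ((i : Fin N) → {x : Matrix (Tp d i) (Tp d i) K // x * sg (q := q) (gr Q i) x = 1}) :=
      (Equiv.subtypeEquivRight (fun r => by
        rw [funext_iff]
        rfl)).trans (Equiv.subtypePiEquivPi)
    rw [Nat.card_congr e, Nat.card_pi]
    refine Finset.prod_congr rfl fun i _ => ?_
    exact card_isom hK (Fintype.card_subtype _) (gr_unit hK hQ hJ hd i) (i - 1) (st_gr hK hQ hJ hd i)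
  · set γ := 2 * (∑ i ∈ Finset.range N, ∑ j ∈ Finset.range N,
            if i < j then i * mlt d i * mlt d j else 0) +
          ∑ i ∈ Finset.range N, (i - 1) * mlt d i ^ 2 with hγ
    have h3 := card_eq_mul_ker (resHom (K := K) hd N) (resHom_surj hd hN)
    rw [card_Cm, card_R hN, Cfsg.Agent.S2581.exponent_eq hd hN,
      Cfsg.Agent.S2581.sum_fib hN (fun i => mlt d i), pow_add] at h3
    have h4 : 0 < Fintype.card K ^ (∑ i ∈ Finset.range N, mlt d i * mlt d i) := by
      have := two_le hK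
      have : 0 < Fintype.card K := Fintype.card_pos
      positivity
    have h5 := Nat.eq_of_mul_eq_mul_left h4 h3
    rw [h2, hK, ← pow_mul, mul_comm 2 γ, pow_mul] at h5
    exact Nat.pow_left_injective (n := 2) (by omega) h5.symm

end count

section bridge

variable {K : Type*} [Field K] [Fintype K] {q : ℕ} (hK : Fintype.card K = q ^ 2)

lemma hf_one {n : ℕ} (x y : Fin n → K) :
    hf q (1 : Matrix (Fin n) (Fin n) K) x y = Cfsg.hermForm n K q x y := by
  simp [hf, Cfsg.hermForm, mul_comm]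

include hK in
lemma gu_iff {n : ℕ} (X : Matrix (Fin n) (Fin n) K) :
    (∀ x y, Cfsg.hermForm n K q (X.mulVec x) (X.mulVec y) = Cfsg.hermForm n K q x y) ↔
      st (q := q) X * X = 1 := by
  have h := isom_iff hK (G := (1 : Matrix (Fin n) (Fin n) K)) (r := X)
  simp only [hf_one, mul_one] at h
  exact h

lemma sg_cond {ι : Type*} [Fintype ι] [DecidableEq ι] {Q A : Matrix ι ι K} (hQ : IsHM q Q) :
    A * sg (q := q) Q A = 1 ↔ st (q := q) A * Q * A = Q := by
  rw [mul_eq_one_comm]
  constructor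
  · intro h
    have h2 : Q * (sg (q := q) Q A * A) = st (q := q) A * Q * A := by
      rw [← mul_assoc, hQ.mul_sg]
    rw [← h2, h, mul_one]
  · intro h
    have h2 : sg (q := q) Q A * A = Q⁻¹ * (st (q := q) A * Q * A) := by
      simp only [sg, mul_assoc]
    rw [h2, h, hQ.inv_mul]

include hK in
/-- The centralizer as a set of matrices. -/
lemma card_centralizer_mat {n : ℕ} (u : ↥(Cfsg.GU n K q)) :
    Nat.card ↥(Subgroup.centralizer ({u} : Set ↥(Cfsg.GU n K q))) =
      Nat.card {X : Matrix (Fin n) (Fin n) K // st (q := q) X * X = 1 ∧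
        X * (u.1.1 : Matrix (Fin n) (Fin n) K) = (u.1.1 : Matrix (Fin n) (Fin n) K) * X} := by
  have hc : ∀ g : ↥(Subgroup.centralizer ({u} : Set ↥(Cfsg.GU n K q))),
      (g.1.1.1 : Matrix (Fin n) (Fin n) K) * (u.1.1 : Matrix (Fin n) (Fin n) K) =
        (u.1.1 : Matrix (Fin n) (Fin n) K) * g.1.1.1 := by
    intro g
    have h1 := (Subgroup.mem_centralizer_iff.mp g.2) u rfl
    have h2 := congrArg (fun y : ↥(Cfsg.GU n K q) => (y.1.1 : Matrix (Fin n) (Fin n) K)) h1
    exact h2.symm
  let F : ↥(Subgroup.centralizer ({u} : Set ↥(Cfsg.GU n K q))) →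
      {X : Matrix (Fin n) (Fin n) K // st (q := q) X * X = 1 ∧
        X * (u.1.1 : Matrix (Fin n) (Fin n) K) = (u.1.1 : Matrix (Fin n) (Fin n) K) * X} :=
    fun g => ⟨g.1.1.1, (gu_iff hK _).mp g.1.2, hc g⟩
  apply Nat.card_eq_of_bijective F
  constructor
  · intro g g' h
    have h1 := congrArg Subtype.val h
    exact Subtype.ext (Subtype.ext (Units.ext h1))
  · rintro ⟨X, hX, hXu⟩
    let g0 : Matrix.GeneralLinearGroup (Fin n) K :=
      ⟨X, st (q := q) X, mul_eq_one_comm.mp hX, hX⟩
    have hg0 : g0 ∈ Cfsg.GU n K q := (gu_iff hK X).mpr hX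
    have hg1 : (⟨g0, hg0⟩ : ↥(Cfsg.GU n K q)) ∈ Subgroup.centralizer ({u} : Set ↥(Cfsg.GU n K q)) := by
      rw [Subgroup.mem_centralizer_iff]
      rintro h rfl
      apply Subtype.ext
      apply Units.ext
      exact hXu.symm
    exact ⟨⟨⟨g0, hg0⟩, hg1⟩, rfl⟩

end bridge

section conj

variable {K : Type*} [Field K] [Fintype K] {q : ℕ} (hK : Fintype.card K = q ^ 2)
  {ι : Type*} [Fintype ι] [DecidableEq ι]
  {c₀ c₁ U J : Matrix ι ι K} (h01 : c₀ * c₁ = 1) (h10 : c₁ * c₀ = 1) (hc : c₀ * J = U * c₀)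
  (hU : st (q := q) U * U = 1)

include hK h01 h10 in
lemma isHM_Q : IsHM q (st (q := q) c₀ * c₀) := by
  refine ⟨?_, ?_⟩
  · rw [st_mul hK, st_st hK]
  · apply Matrix.isUnit_det_of_right_inverse (B := c₁ * st (q := q) c₁)
    have h1 : st (q := q) c₁ * st (q := q) c₀ = 1 := by rw [← st_mul hK, h01, st_one hK]
    have h2 : st (q := q) c₀ * st (q := q) c₁ = 1 := mul_eq_one_comm.mp h1
    calc st (q := q) c₀ * c₀ * (c₁ * st (q := q) c₁) = st (q := q) c₀ * (c₀ * c₁) * st (q := q) c₁ := by
          simp only [mul_assoc]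
      _ = 1 := by rw [h01, mul_one, h2]

include hK hc hU in
lemma hJ_Q : st (q := q) J * (st (q := q) c₀ * c₀) * J = st (q := q) c₀ * c₀ := by
  calc st (q := q) J * (st (q := q) c₀ * c₀) * J = st (q := q) (c₀ * J) * (c₀ * J) := by
        rw [st_mul hK]
        simp only [mul_assoc]
    _ = st (q := q) c₀ * (st (q := q) U * U) * c₀ := by
        rw [hc, st_mul hK]
        simp only [mul_assoc]
    _ = _ := by rw [hU, mul_one]

include hK h01 h10 in
/-- The conjugate of an isometry of the standard form. -/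
lemma conj_iso (G : Matrix ι ι K) :
    st (q := q) (c₁ * G * c₀) * (st (q := q) c₀ * c₀) * (c₁ * G * c₀) = st (q := q) c₀ * c₀ ↔
      st (q := q) G * G = 1 := by
  have h1 : st (q := q) c₁ * st (q := q) c₀ = 1 := by rw [← st_mul hK, h01, st_one hK]
  have h2 : st (q := q) c₀ * st (q := q) c₁ = 1 := mul_eq_one_comm.mp h1
  have e : st (q := q) (c₁ * G * c₀) * (st (q := q) c₀ * c₀) * (c₁ * G * c₀) =
      st (q := q) c₀ * (st (q := q) G * G) * c₀ := by
    rw [st_mul hK, st_mul hK]
    calc st (q := q) c₀ * (st (q := q) G * st (q := q) c₁) * (st (q := q) c₀ * c₀) * (c₁ * G * c₀)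
        = st (q := q) c₀ * st (q := q) G * (st (q := q) c₁ * st (q := q) c₀) * (c₀ * c₁) * G * c₀ := by
          simp only [mul_assoc]
      _ = _ := by
          rw [h1, h01, mul_one, mul_one]
          simp only [mul_assoc]
  rw [e]
  constructor
  · intro h
    calc st (q := q) G * G = st (q := q) c₁ * (st (q := q) c₀ * (st (q := q) G * G) * c₀) * c₁ := by
          calc st (q := q) G * G = (st (q := q) c₁ * st (q := q) c₀) * (st (q := q) G * G) * (c₀ * c₁) := by
                rw [h1, h01, one_mul, mul_one]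
            _ = _ := by simp only [mul_assoc]
      _ = st (q := q) c₁ * (st (q := q) c₀ * c₀) * c₁ := by rw [h]
      _ = (st (q := q) c₁ * st (q := q) c₀) * (c₀ * c₁) := by simp only [mul_assoc]
      _ = 1 := by rw [h1, h01, one_mul]
  · intro h
    rw [h, mul_one]

include h01 h10 hc in
/-- The conjugate of a commuting matrix. -/
lemma conj_comm (G : Matrix ι ι K) :
    (c₁ * G * c₀) * J = J * (c₁ * G * c₀) ↔ G * U = U * G := by
  have hJ1 : J * c₁ = c₁ * U := by
    calc J * c₁ = c₁ * c₀ * J * c₁ := by rw [h10, one_mul]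
      _ = c₁ * (c₀ * J) * c₁ := by simp only [mul_assoc]
      _ = c₁ * U * (c₀ * c₁) := by rw [hc]; simp only [mul_assoc]
      _ = _ := by rw [h01, mul_one]
  have e1 : (c₁ * G * c₀) * J = c₁ * (G * U) * c₀ := by
    calc (c₁ * G * c₀) * J = c₁ * G * (c₀ * J) := by simp only [mul_assoc]
      _ = _ := by rw [hc]; simp only [mul_assoc]
  have e2 : J * (c₁ * G * c₀) = c₁ * (U * G) * c₀ := by
    calc J * (c₁ * G * c₀) = (J * c₁) * G * c₀ := by simp only [mul_assoc]
      _ = _ := by rw [hJ1]; simp only [mul_assoc]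
  rw [e1, e2]
  constructor
  · intro h
    calc G * U = (c₀ * c₁) * (G * U) * (c₀ * c₁) := by rw [h01, one_mul, mul_one]
      _ = c₀ * (c₁ * (G * U) * c₀) * c₁ := by simp only [mul_assoc]
      _ = c₀ * (c₁ * (U * G) * c₀) * c₁ := by rw [h]
      _ = (c₀ * c₁) * (U * G) * (c₀ * c₁) := by simp only [mul_assoc]
      _ = _ := by rw [h01, one_mul, mul_one]
  · intro h
    rw [h]

include hK h01 h10 hc in
/-- Conjugation identifies the isometries commuting with `U` with those of the transported form. -/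
lemma card_conj :
    Nat.card {G : Matrix ι ι K // st (q := q) G * G = 1 ∧ G * U = U * G} =
      Nat.card {A : Matrix ι ι K // st (q := q) A * (st (q := q) c₀ * c₀) * A = st (q := q) c₀ * c₀ ∧
        A * J = J * A} := by
  apply Nat.card_congr
  exact
    { toFun := fun G => ⟨c₁ * G.1 * c₀, (conj_iso hK h01 h10 G.1).mpr G.2.1,
        (conj_comm h01 h10 hc G.1).mpr G.2.2⟩
      invFun := fun A => ⟨c₀ * A.1 * c₁, by
          have h3 : c₁ * (c₀ * A.1 * c₁) * c₀ = A.1 := by
            calc c₁ * (c₀ * A.1 * c₁) * c₀ = (c₁ * c₀) * A.1 * (c₁ * c₀) := by simp only [mul_assoc]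
              _ = _ := by rw [h10, one_mul, mul_one]
          refine ⟨(conj_iso hK h01 h10 _).mp (by rw [h3]; exact A.2.1), (conj_comm h01 h10 hc _).mp ?_⟩
          rw [h3]
          exact A.2.2⟩
      left_inv := fun G => by
        apply Subtype.ext
        show c₀ * (c₁ * G.1 * c₀) * c₁ = G.1
        calc c₀ * (c₁ * G.1 * c₀) * c₁ = (c₀ * c₁) * G.1 * (c₀ * c₁) := by simp only [mul_assoc]
          _ = _ := by rw [h01, one_mul, mul_one]
      right_inv := fun A => by
        apply Subtype.ext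
        show c₁ * (c₀ * A.1 * c₁) * c₀ = A.1
        calc c₁ * (c₀ * A.1 * c₁) * c₀ = (c₁ * c₀) * A.1 * (c₁ * c₀) := by simp only [mul_assoc]
          _ = _ := by rw [h10, one_mul, mul_one] }

end conj

section final

variable {K : Type*} [Field K] [Fintype K] {q : ℕ} (hK : Fintype.card K = q ^ 2) {t : ℕ} {d : Fin t → ℕ}

include hK in
/-- The commutant description of the centralizer. -/
lemma card_unit_Cm {Q : Matrix (Ix d) (Ix d) K} (hQ : IsHM q Q)
    (hJ : st (q := q) (jordanTypeMatrix d K) * Q * jordanTypeMatrix d K = Q) :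
    Nat.card {A : Matrix (Ix d) (Ix d) K // st (q := q) A * Q * A = Q ∧
        A * jordanTypeMatrix d K = jordanTypeMatrix d K * A} =
      Nat.card {x : Cm K d // x * sgE hK hQ hJ x = 1} := by
  apply Nat.card_congr
  exact
    { toFun := fun A => ⟨⟨A.1, mem_Cm.mpr ((comm_iff A.1).mp A.2.2)⟩, Subtype.ext ((sg_cond hQ).mpr A.2.1)⟩
      invFun := fun x => ⟨x.1.1, (sg_cond hQ).mp (congrArg Subtype.val x.2),
        (comm_iff x.1.1).mpr (mem_Cm.mp x.1.2)⟩
      left_inv := fun A => rfl
      right_inv := fun x => rfl }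

include hK in
/-- The order of the centralizer. -/
theorem card_centralizer (hd : ∀ k, 1 ≤ d k) {n : ℕ} (e : Ix d ≃ Fin n) (u : ↥(Cfsg.GU n K q))
    (hu : IsConj (Matrix.reindex e e (Cfsg.jordanTypeMatrix d K)) ((u : GL (Fin n) K) : Matrix (Fin n) (Fin n) K))
    {N : ℕ} (hN : ∀ k, d k < N) :
    Nat.card ↥(Subgroup.centralizer ({u} : Set ↥(Cfsg.GU n K q))) =
      (∏ i : Fin N, Nat.card (Cfsg.GU (mlt d i) K q)) *
        q ^ (2 * (∑ i ∈ Finset.range N, ∑ j ∈ Finset.range N,
            if i < j then i * mlt d i * mlt d j else 0) +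
          ∑ i ∈ Finset.range N, (i - 1) * mlt d i ^ 2) := by
  classical
  obtain ⟨c, hc⟩ := hu
  -- transport to the index type of the Jordan form
  let tr : Matrix (Fin n) (Fin n) K ≃ₐ[K] Matrix (Ix d) (Ix d) K := Matrix.reindexAlgEquiv K K e.symm
  have htr : ∀ X : Matrix (Fin n) (Fin n) K, st (q := q) (tr X) = tr (st (q := q) X) := fun X => rfl
  have hJtr : tr (Matrix.reindex e e (Cfsg.jordanTypeMatrix d K)) = Cfsg.jordanTypeMatrix d K := by
    ext x y
    simp [tr, Matrix.reindexAlgEquiv_apply]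
  set M : Matrix (Fin n) (Fin n) K := ((u : GL (Fin n) K) : Matrix (Fin n) (Fin n) K) with hM
  have hMu : st (q := q) M * M = 1 := (gu_iff hK M).mp u.2
  have h01 : tr c.1 * tr c⁻¹.1 = 1 := by rw [← map_mul, c.mul_inv, map_one]
  have h10 : tr c⁻¹.1 * tr c.1 = 1 := by rw [← map_mul, c.inv_mul, map_one]
  have hc' : tr c.1 * Cfsg.jordanTypeMatrix d K = tr M * tr c.1 := by
    rw [← hJtr, ← map_mul, ← map_mul, hc.eq]
  have hU : st (q := q) (tr M) * tr M = 1 := by rw [htr, ← map_mul, hMu, map_one]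
  have hQ := isHM_Q hK h01 h10
  have hJ := hJ_Q hK hc' hU
  rw [card_centralizer_mat hK u, ← card_cent_abs hK hQ hJ hd hN, ← card_unit_Cm hK hQ hJ,
    ← card_conj hK h01 h10 hc']
  apply Nat.card_congr
  refine Equiv.subtypeEquiv tr.toEquiv fun X => ?_
  show st (q := q) X * X = 1 ∧ X * M = M * X ↔
    st (q := q) (tr X) * tr X = 1 ∧ tr X * tr M = tr M * tr X
  rw [htr, ← map_mul, ← map_mul, ← map_mul, ← map_one tr, tr.injective.eq_iff, tr.injective.eq_iff]

include hK in
/-- The order of the general unitary group, in integers. -/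
lemma card_GU_int (a : ℕ) :
    ((Nat.card (Cfsg.GU a K q) : ℕ) : ℤ) = (q : ℤ) ^ (a * (a - 1) / 2) *
      ∏ j : Fin a, ((q : ℤ) ^ ((j : ℕ) + 1) - (-1) ^ ((j : ℕ) + 1)) := by
  rw [Cfsg.Agent.Lib.Classical.HermOrders.card_GU hK a, Nat.cast_mul, Nat.cast_pow, Nat.cast_prod,
    Finset.prod_range]
  congr 1
  refine Finset.prod_congr rfl fun j _ => ?_
  have hq2 := two_le hK
  rcases Nat.even_or_odd (j : ℕ) with h | h
  · rw [if_pos h, Odd.neg_one_pow h.add_one]
    push_cast
    ring
  · rw [if_neg (Nat.not_even_iff_odd.mpr h), Even.neg_one_pow h.add_one]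
    have h1 : 1 ≤ q ^ ((j : ℕ) + 1) := Nat.one_le_pow _ _ (by omega)
    rw [Nat.cast_sub h1]
    push_cast
    ring

end final

end Cfsg.Agent.Lib.GUCent
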