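import Cfsg.Agent.Lib.GUCent.Form

/-!
# The commutant of a unipotent matrix with the adjoint involution
-/

set_option autoImplicit false
set_option linter.unusedSectionVars false
set_option linter.unusedVariables false
set_option linter.style.haveILetI false

namespace Cfsg.Agent.Lib.GUCent

open Matrix Cfsg.Agent.Lib.HermCount.Field Cfsg.Agent.Lib.Jordan.Cent
open Cfsg

variable {K : Type*} [Field K] {t : ℕ} {d : Fin t → ℕ}

section nil

/-- An element of the commutant with vanishing residues is nilpotent. -/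
theorem nil_of_res {A : Matrix (Ix d) (Ix d) K} (hA : A * Nil K d = Nil K d * A)
    (hd : ∀ k, 1 ≤ d k) (h : ∀ i, res A i = 0) : IsNilpotent A := by
  classical
  let w : Ix d → ℤ := fun x => 2 * ((x.2 : ℕ) : ℤ) - (d x.1 : ℤ)
  have hstep : ∀ x y, A x y ≠ 0 → w y < w x := by
    rintro ⟨l, a⟩ ⟨k, c⟩ hne
    obtain ⟨h1, h2⟩ := entry_ne_zero hA _ _ hne
    simp only at h1 h2
    have ha := a.2
    have hc := c.2
    simp only [w]
    by_contra hcon
    have hac : (a : ℕ) = c := by omega
    have hdd : d l = d k := by omega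
    apply hne
    have h3 : A ⟨l, a⟩ ⟨k, c⟩ = B A l k a c := (B_apply A ⟨l, a⟩ ⟨k, c⟩).symm
    rw [h3, hac, entry_diag hA l k hdd c (by rw [hdd]; exact c.2)]
    have h4 := congrFun (congrFun (h (d k)) ⟨l, hdd⟩) ⟨k, rfl⟩
    exact h4
  have hpow : ∀ (n : ℕ) x y, (A ^ n) x y ≠ 0 → w y + n ≤ w x := by
    intro n
    induction n with
    | zero =>
      intro x y hne
      rw [pow_zero, Matrix.one_apply] at hne
      have : x = y := by
        by_contra hxy
        exact hne (if_neg hxy)
      subst this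
      simp
    | succ n ih =>
      intro x y hne
      rw [pow_succ, Matrix.mul_apply] at hne
      obtain ⟨z, -, hz⟩ := Finset.exists_ne_zero_of_sum_ne_zero hne
      have h1 := ih x z (left_ne_zero_of_mul hz)
      have h2 := hstep z y (right_ne_zero_of_mul hz)
      push_cast
      omega
  let S := Finset.univ.sup d
  have hS : ∀ k, d k ≤ S := fun k => Finset.le_sup (f := d) (Finset.mem_univ k)
  refine ⟨2 * S + 1, ?_⟩
  ext x y
  by_contra hne
  have hne' : (A ^ (2 * S + 1)) x y ≠ 0 := hne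
  have h1 := hpow _ x y hne'
  have h2 := x.2.2
  have h3 := y.2.2
  have h4 := hS x.1
  have h5 := hS y.1
  simp only [w] at h1
  push_cast at h1
  omega

end nil

section surj

/-- Every family of residues is realized. -/
theorem exists_of_res (hd : ∀ k, 1 ≤ d k) {N : ℕ} (hN : ∀ k, d k < N)
    (β : (i : Fin N) → Matrix (Tp d i) (Tp d i) K) :
    ∃ A : Matrix (Ix d) (Ix d) K, A * Nil K d = Nil K d * A ∧ ∀ i : Fin N, res A i = β i := by
  classical
  let α : Par d → K := fun s =>
    if h : d s.2.1 = d s.1 ∧ (s.2.2 : ℕ) + 1 = d s.1 then β ⟨d s.1, hN s.1⟩ ⟨s.2.1, h.1⟩ ⟨s.1, rfl⟩ else 0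
  refine ⟨mk0 α, mk0_comm α, ?_⟩
  rintro ⟨i, hi⟩
  ext ⟨l, hl⟩ ⟨k, hk⟩
  simp only at hl hk
  subst hk
  simp only [res]
  rw [B, dif_pos ⟨hd l, hd k⟩]
  simp only [mk0, ext0]
  rw [if_pos (le_refl _), dif_pos]
  · simp only [α]
    have := hd l
    rw [dif_pos ⟨hl, by show d l - 1 - (0 - 0) + 1 = d k; omega⟩]
  · simp only [Nat.sub_self]
    rw [hl, min_self]
    have := hd k
    omega

end surj

section mainhom

variable (K d) in
/-- The commutant. -/
abbrev Cm : Subalgebra K (Matrix (Ix d) (Ix d) K) := Subalgebra.centralizer K {Nil K d}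

omit [Field K] in
lemma mem_Cm [Field K] {A : Matrix (Ix d) (Ix d) K} : A ∈ Cm K d ↔ A * Nil K d = Nil K d * A := by
  rw [Subalgebra.mem_centralizer_iff]
  constructor
  · intro h
    exact (h _ rfl).symm
  · rintro h _ rfl
    exact h.symm

/-- The residue homomorphism. -/
def resHom (hd : ∀ k, 1 ≤ d k) (N : ℕ) : Cm K d →+* ((i : Fin N) → Matrix (Tp d i) (Tp d i) K) where
  toFun A i := res A.1 i
  map_one' := by
    funext i
    exact res_one hd i
  map_mul' A A' := by
    funext i
    exact res_mul hd (mem_Cm.mp A.2) (mem_Cm.mp A'.2) i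
  map_zero' := by
    funext i
    ext l k
    simp [res, B]
  map_add' A A' := by
    funext i
    ext l k
    simp only [res, B, Pi.add_apply, Matrix.add_apply]
    split_ifs <;> simp

lemma resHom_apply (hd : ∀ k, 1 ≤ d k) (N : ℕ) (A : Cm K d) (i : Fin N) : resHom hd N A i = res A.1 i := rfl

theorem resHom_surj (hd : ∀ k, 1 ≤ d k) {N : ℕ} (hN : ∀ k, d k < N) :
    Function.Surjective (resHom (K := K) hd N) := by
  intro β
  obtain ⟨A, hA, h⟩ := exists_of_res hd hN β
  exact ⟨⟨A, mem_Cm.mpr hA⟩, funext h⟩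

theorem resHom_nil (hd : ∀ k, 1 ≤ d k) {N : ℕ} (hN : ∀ k, d k < N) (x : Cm K d) (h : resHom hd N x = 0) :
    IsNilpotent x := by
  have h1 : IsNilpotent x.1 := by
    apply nil_of_res (mem_Cm.mp x.2) hd
    intro i
    by_cases hi : i < N
    · exact congrFun h ⟨i, hi⟩
    · ext ⟨l, hl⟩ ⟨k, hk⟩
      have := hN l
      omega
  obtain ⟨n, hn⟩ := h1
  refine ⟨n, Subtype.ext ?_⟩
  simpa using hn

end mainhom

section sgE

variable [Fintype K] {q : ℕ} (hK : Fintype.card K = q ^ 2)
  {Q : Matrix (Ix d) (Ix d) K} (hQ : IsHM q Q)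
  (hJ : st (q := q) (jordanTypeMatrix d K) * Q * jordanTypeMatrix d K = Q)

/-- The adjoint on the commutant. -/
noncomputable def sgE : Cm K d →+ Cm K d :=
  AddMonoidHom.mk' (fun A => ⟨sg (q := q) Q A.1, mem_Cm.mpr (sg_comm hK hQ hJ (mem_Cm.mp A.2))⟩)
    (fun A A' => Subtype.ext (sg_add hK A.1 A'.1))

lemma sgE_val (A : Cm K d) : (sgE hK hQ hJ A).1 = sg (q := q) Q A.1 := rfl

theorem sgE_inv : IsInv (K := K) q (sgE hK hQ hJ) where
  mul x y := by
    apply Subtype.ext
    exact hQ.sg_mul hK x.1 y.1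
  one := by
    apply Subtype.ext
    exact hQ.sg_one hK
  invol x := by
    apply Subtype.ext
    exact hQ.sg_sg hK x.1
  smul c x := by
    apply Subtype.ext
    exact sg_smul hK c x.1

/-- The involution on the residues. -/
noncomputable def tauR (Q : Matrix (Ix d) (Ix d) K) (N : ℕ) :
    ((i : Fin N) → Matrix (Tp d i) (Tp d i) K) → ((i : Fin N) → Matrix (Tp d i) (Tp d i) K) :=
  fun r i => sg (q := q) (gr Q i) (r i)

theorem resHom_sgE (hd : ∀ k, 1 ≤ d k) (N : ℕ) (x : Cm K d) :
    resHom hd N (sgE hK hQ hJ x) = tauR (q := q) Q N (resHom hd N x) := by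
  funext i
  simp only [tauR, resHom_apply, sgE_val]
  have h1 := res_sg hK hQ hJ hd (mem_Cm.mp x.2) i
  have h2 : IsUnit (gr Q i).det := gr_unit hK hQ hJ hd i
  conv_rhs => rw [sg]
  rw [mul_assoc, h1, ← mul_assoc, Matrix.nonsing_inv_mul _ h2, one_mul]

end sgE

section count

variable [Fintype K] {q : ℕ} (hK : Fintype.card K = q ^ 2)

/-- The cardinality of the commutant. -/
theorem card_Cm : Nat.card (Cm K d) = Fintype.card K ^ (∑ k, ∑ l, min (d k) (d l)) := by
  classical
  let e : Cm K d ≃ (Par d → K) :=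
    { toFun := fun A => pars A.1
      invFun := fun α => ⟨mk0 α, mem_Cm.mpr (mk0_comm α)⟩
      left_inv := fun A => Subtype.ext (mk0_pars (mem_Cm.mp A.2))
      right_inv := fun α => pars_mk0 α }
  rw [Nat.card_congr e, Nat.card_fun, Nat.card_eq_fintype_card, Nat.card_eq_fintype_card]
  congr 1
  simp [Fintype.card_sigma]

/-- The cardinality of the ring of residues. -/
theorem card_R {N : ℕ} (hN : ∀ k, d k < N) :
    Nat.card ((i : Fin N) → Matrix (Tp d i) (Tp d i) K) =
      Fintype.card K ^ (∑ i ∈ Finset.range N, (Finset.univ.filter (fun k : Fin t => d k = i)).card *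
        (Finset.univ.filter (fun k : Fin t => d k = i)).card) := by
  classical
  rw [Nat.card_pi, Finset.sum_range, ← Finset.prod_pow_eq_pow_sum]
  refine Finset.prod_congr rfl fun i _ => ?_
  have h1 : Fintype.card (Tp d i) = (Finset.univ.filter (fun k : Fin t => d k = (i : ℕ))).card :=
    Fintype.card_subtype _
  show Nat.card (Tp d i → Tp d i → K) = _
  rw [Nat.card_fun, Nat.card_fun, Nat.card_eq_fintype_card, Nat.card_eq_fintype_card, h1, ← pow_mul]

end count

end Cfsg.Agent.Lib.GUCent
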